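import Mathlib
import Cfsg.Agent.Lib.Wall.Inv
import Cfsg.Agent.S2570

/-!
The unipotent classes of the symplectic groups in odd characteristic.
-/

set_option autoImplicit false

namespace H64.Wall

open Polynomial Module H65 Finset LinearMap
open scoped Classical

variable {F V : Type*} [Field F] [AddCommGroup V] [Module F V]

theorem unip_exact [Finite F] (h2 : (2 : F) ≠ 0) {ι : Type*} [Fintype ι] {d : ι → ℕ}
    (hd : ∀ k, 0 < d k) {u : End F V} (hs : Similar (u - 1) (nilModel F d)) :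
    ∃ δ : LinearMap.BilinForm F V → Finset ℕ,
      (∀ B B', Good (-1) u B → Good (-1) u B' →
        (δ B = δ B' ↔ ∃ c, Commute u c ∧ ∀ v w, B (c v) (c w) = B' v w)) ∧
      (∀ B, δ B ⊆ {a ∈ univ.image d | Even a}) ∧
      ∀ B, Good (-1) u B → ∀ S ⊆ {a ∈ univ.image d | Even a}, ∃ B', Good (-1) u B' ∧ δ B' = S := by
  obtain ⟨b, hb⟩ := hs.exists_isJordanBasis
  have := Module.Finite.of_basis b
  let D : ∀ a, LinearMap.BilinForm F ({k // d k = a} → F) → F := fun a G =>
    (LinearMap.BilinForm.toMatrix (Pi.basisFun F _) G).det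
  have hD : ∀ a G, G.Nondegenerate ↔ D a G ≠ 0 := fun a G => BilinForm.nondegenerate_iff_det_ne_zero _
  have hc : ∀ a G P P', D a (G.comp P P') = LinearMap.det P * D a G * LinearMap.det P' :=
    fun a G P P' => by
      simp only [D, LinearMap.BilinForm.toMatrix_comp (Pi.basisFun F _) (Pi.basisFun F _),
        Matrix.det_mul, Matrix.det_transpose, LinearMap.det_toMatrix]
  have hsym : ∀ B a, Good (-1) u B → a ∈ univ.image d → Even a → ∀ c c',
      gram b hd (u - 1) B a c' c = gram b hd (u - 1) B a c c' := fun B a hB h h' c c' => by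
    obtain ⟨k, -, rfl⟩ := mem_image.1 h
    rw [gram_symm hb hB.inv hB.sym, (Nat.Even.sub_odd (hd k) h' odd_one).neg_one_pow]; simp
  refine ⟨fun B => {a ∈ {a ∈ univ.image d | Even a} | ¬ IsSquare (D a (gram b hd (u - 1) B a))},
    fun B B' hB hB' => ⟨fun h => ?_, fun ⟨c, h1, h3⟩ => filter_congr fun a _ => not_congr ?_⟩,
    fun B => filter_subset _ _, fun B hB S hS => ?_⟩
  · have : ∀ a, ∃ P, (gram b hd (u - 1) B a).comp P P = gram b hd (u - 1) B' a := fun a => by
      have a1 := gram_nondeg (hd := hd) hb hB.inv hB.nd a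
      have a2 := gram_nondeg (hd := hd) hb hB'.inv hB'.nd a
      by_cases h0 : a ∈ univ.image d
      swap
      · have : IsEmpty {k // d k = a} := ⟨fun k => h0 (mem_image.2 ⟨k.1, mem_univ _, k.2⟩)⟩
        exact ⟨0, LinearMap.ext₂ fun c c' => by simp [Subsingleton.elim c 0]⟩
      rcases a.even_or_odd with ha | ha
      · have := Fintype.ofFinite F
        obtain ⟨P, hP⟩ := exists_congr_symm h2 a1 a2 (hsym B a hB h0 ha) (hsym B' a hB' h0 ha)
          (Pi.basisFun F _) (by
            have a3 := Finset.ext_iff.1 h a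
            simp only [mem_filter, h0, ha, true_and, not_iff_not] at a3
            refine (quadraticChar_one_iff_isSquare (mul_ne_zero ((hD _ _).1 a2) ((hD _ _).1 a1))).1 ?_
            rw [map_mul]
            by_cases a4 : IsSquare (D a (gram b hd (u - 1) B a))
            · rw [(quadraticChar_one_iff_isSquare ((hD _ _).1 a1)).2 a4,
                (quadraticChar_one_iff_isSquare ((hD _ _).1 a2)).2 (a3.1 a4), one_mul]
            · rw [quadraticChar_neg_one_iff_not_isSquare.2 a4,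
                quadraticChar_neg_one_iff_not_isSquare.2 (mt a3.2 a4)]; simp)
        exact ⟨P, LinearMap.ext₂ hP⟩
      · have halt : ∀ B, Good (-1) u B → (gram b hd (u - 1) B a).IsAlt := fun B hB c => by
          have := gram_symm (hd := hd) hb hB.inv hB.sym a c c
          rw [(Nat.Odd.sub_odd ha odd_one).neg_one_pow] at this
          exact (mul_eq_zero.1 (by linear_combination this)).resolve_left h2
        obtain ⟨P, hP⟩ := H66.exists_equiv_alt _ _ a1 a2 (halt B hB) (halt B' hB') rfl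
        exact ⟨P, LinearMap.ext₂ hP⟩
    choose P hP using this
    exact exists_equiv_of_gram h2 hb hB'.nd hB.sym hB'.sym hB.inv hB'.inv P hP
  · have a1 := h1.symm.sub_right (Commute.one_right c)
    have a2 := congrArg (D a) (gram_comp (hd := hd) hb hB.inv a1 a1 a)
    rw [show B.comp c c = B' from LinearMap.ext₂ h3, hc, mul_right_comm] at a2
    have a3 := (hD _ _).1 (gram_nondeg (hd := hd) hb hB'.inv hB'.nd a)
    rw [a2] at a3 ⊢
    have a4 := left_ne_zero_of_mul (left_ne_zero_of_mul a3)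
    refine ⟨fun h => (IsSquare.mul_self _).mul h, fun h => ?_⟩
    simpa [a4, mul_assoc] using (IsSquare.mul_self (LinearMap.det (hdE b hd a c))⁻¹).mul h
  obtain ⟨α, hα⟩ := exists_nonsq h2
  have : ∀ a, ∃ G : LinearMap.BilinForm F ({k // d k = a} → F), G.Nondegenerate ∧
      (∀ c c', G c' c = -1 * (-1) ^ (a - 1) * G c c') ∧
      (a ∈ univ.image d → Even a → (¬ IsSquare (D a G) ↔ a ∈ S)) := fun a => by
    by_cases h : a ∈ univ.image d ∧ Even a
    swap
    · exact ⟨_, gram_nondeg (hd := hd) hb hB.inv hB.nd a, gram_symm hb hB.inv hB.sym a,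
        fun h1 h3 => absurd ⟨h1, h3⟩ h⟩
    obtain ⟨k, -, rfl⟩ := mem_image.1 h.1
    let M := Matrix.diagonal (Function.update (1 : {l // d l = d k} → F) ⟨k, rfl⟩
      (if d k ∈ S then α else 1))
    have a1 : D _ (Matrix.toBilin' M) = if d k ∈ S then α else 1 := by
      simp [D, M, LinearMap.BilinForm.toMatrix_basisFun, prod_update_of_mem]
    refine ⟨Matrix.toBilin' M, (hD _ _).2 ?_, fun c c' => ?_, fun _ _ => ?_⟩
    · rw [a1]; split_ifs; exacts [by rintro rfl; simp at hα, one_ne_zero]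
    · rw [(Nat.Even.sub_odd (hd k) h.2 odd_one).neg_one_pow]
      simp [M, Matrix.toBilin'_apply', dotProduct, Matrix.mulVec_diagonal, mul_left_comm, mul_comm]
    · rw [a1]; split_ifs with h' <;> simp [h', hα]
  choose G G1 G2 G3 using this
  choose P hP using fun a => exists_left (gram_nondeg (hd := hd) hb hB.inv hB.nd a) (G a)
  obtain ⟨φ, a1, a2⟩ := exists_lift (hd := hd) hb P
  have a3 : Commute φ u := by simpa using a1.add_right (Commute.one_right φ)
  let B' := (2 : F)⁻¹ • (B.comp φ 1 + B.comp 1 φ)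
  have a4 : ∀ v w, B' (u v) (u w) = B' v w := fun v w => by
    simp [B', ← End.mul_apply φ, a3.eq, hB.inv]
  have a5 : ∀ a, hdE b hd a 1 = 1 := fun a => LinearMap.ext (prj_emb (b := b) (hd := hd) a)
  have a6 : ∀ a, gram b hd (u - 1) B' a = G a := fun a => LinearMap.ext₂ fun c c' => by
    have b1 := LinearMap.congr_fun₂ (gram_comp (hd := hd) hb hB.inv a1 (Commute.one_left _) a) c c'
    have b2 := LinearMap.congr_fun₂ (gram_comp (hd := hd) hb hB.inv (Commute.one_left _) a1 a) c c'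
    rw [a2, a5, BilinForm.comp_apply, End.one_apply] at b1 b2
    rw [gram_symm hb hB.inv hB.sym, hP, ← G2] at b2
    rw [hP] at b1
    simp only [gram_apply, B', LinearMap.smul_apply, LinearMap.add_apply, smul_eq_mul] at b1 b2 ⊢
    rw [b1, b2, ← two_mul, inv_mul_cancel_left₀ h2]
  obtain ⟨s, hs⟩ := exists_left hB.nd B'
  have a7 := (commute_left hB.nd hB.isUnit hB.inv a4 hs).sub_right (Commute.one_right s)
  have a8 : IsUnit s := by
    rw [LinearMap.isUnit_iff_isUnit_det, det_eq_prod (hd := hd) hb a7 fun k =>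
      Nat.lt_succ_of_le (le_sup (f := d) (mem_univ k)), isUnit_iff_ne_zero]
    refine prod_ne_zero_iff.2 fun a _ => pow_ne_zero _ ?_
    have := (hD _ _).1 (G1 a)
    rw [← a6, ← show B.comp s 1 = B' from LinearMap.ext₂ hs,
      gram_comp (hd := hd) hb hB.inv a7 (Commute.one_left _) a, hc] at this
    exact left_ne_zero_of_mul (left_ne_zero_of_mul this)
  have a9 := (End.isUnit_iff s).1 a8
  refine ⟨B', ⟨⟨fun v h => a9.1 ((hB.nd.1 _ fun w => (hs _ _).trans (h w)).trans (map_zero s).symm),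
    fun v h => hB.nd.2 _ fun w => ?_⟩, fun v w => ?_, a4⟩, Finset.ext fun a => ?_⟩
  · obtain ⟨w, rfl⟩ := a9.2 w
    rw [hs, h]
  · simp only [B', LinearMap.smul_apply, LinearMap.add_apply, BilinForm.comp_apply, End.one_apply,
      hB.sym v, hB.sym (φ v), smul_eq_mul]
    ring
  · simp only [mem_filter, a6]
    exact ⟨fun h => (G3 a h.1.1 h.1.2).1 h.2, fun h => ⟨mem_filter.1 (hS h),
      (G3 a (mem_filter.1 (hS h)).1 (mem_filter.1 (hS h)).2).2 h⟩⟩

open Cfsg.Agent.S2570 in
theorem card_unip_sp [Fintype F] {p : ℕ} [Fact p.Prime] [CharP F p] (hp : p ≠ 2) (m : ℕ) :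
    Nat.card {C : ConjClasses (Matrix.symplecticGroup (Fin m) F) //
      ∃ g, ConjClasses.mk g = C ∧ g ^ p = 1} =
    ∑ μ : Nat.Partition (2 * m) with (∀ a ∈ μ.parts, a ≤ p) ∧ ∀ j, Odd j → Even (μ.parts.count j),
      2 ^ #{j ∈ μ.parts.toFinset | Even j} := by
  have h2 : (2 : F) ≠ 0 := Ring.two_ne_zero (by rwa [ringChar.eq F p])
  let u : ∀ μ : Nat.Partition (2 * m), End F _ := fun μ => nilModel F (fun x : μ.parts => (x : ℕ)) + 1
  have hE : ∀ μ : Nat.Partition (2 * m), univ.image (fun x : μ.parts => (x : ℕ)) = μ.parts.toFinset :=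
    fun μ => Finset.ext fun a => by
      simp only [mem_image, mem_univ, true_and, Multiset.mem_toFinset]
      exact ⟨fun ⟨x, h⟩ => h ▸ Multiset.coe_mem, fun h => ⟨⟨a, 0, Multiset.count_pos.2 h⟩, rfl⟩⟩
  choose δ h1 h3 h4 using fun μ : Nat.Partition (2 * m) => unip_exact h2 (u := u μ)
    (fun x => μ.parts_pos Multiset.coe_mem) (by rw [add_sub_cancel_right]; exact .refl _)
  simp only [hE] at h3 h4
  let J := H66.sympBilin m F
  let R' : Matrix.symplecticGroup (Fin m) F → Nat.Partition (2 * m) → Finset ℕ → Prop :=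
    fun g μ S => ∃ e : _ ≃ₗ[F] (Fin m ⊕ Fin m → F), (∀ v, e (u μ v) = Matrix.toLin' g.1 (e v)) ∧
      δ μ (J.comp e e) = S
  let R : Matrix.symplecticGroup (Fin m) F → (Σ _ : Nat.Partition (2 * m), Finset ℕ) → Prop :=
    fun g x => R' g x.1 x.2
  have hJ := H66.sympBilin_nondegenerate (F := F) m
  have g1 : ∀ (g : Matrix.symplecticGroup (Fin m) F) μ (e : _ ≃ₗ[F] (Fin m ⊕ Fin m → F)),
      (∀ v, e (u μ v) = Matrix.toLin' g.1 (e v)) → Good (-1) (u μ) (J.comp e e) := fun g μ e he =>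
    ⟨⟨fun v h => e.map_eq_zero_iff.1 (hJ.1 _ fun w => by simpa using h (e.symm w)),
      fun v h => e.map_eq_zero_iff.1 (hJ.2 _ fun w => by simpa using h (e.symm w))⟩,
      fun v w => by simp [J, (H66.sympBilin_isAlt (F := F) m).neg_eq], fun v w => by
        simpa [he] using (H66.mem_symplecticGroup_iff _).1 g.2 _ _⟩
  have g2 : ∀ g x, R g x → Similar (Matrix.toLin' g.1 - 1) (nilModel F fun y : x.1.parts => (y : ℕ)) :=
    fun g x ⟨e, he, _⟩ => by simpa [u] using (H65.Similar.symm ⟨e, he⟩).sub_one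
  have g3 : ∀ g : Matrix.symplecticGroup (Fin m) F, g ^ p = 1 ↔ (g.1 - 1) ^ p = 0 := fun g => by
    have := pow_char_pow_eq_one_iff (F := F) p g.1 1
    rw [pow_one] at this
    rw [← this, Subtype.ext_iff]; rfl
  have g4 : ∀ g g' x x', R g x → R g' x' → (IsConj g g' ↔ x = x') := by
    rintro g g' ⟨μ, S⟩ ⟨μ', S'⟩ a1 a2
    have a3 := g2 _ _ a1
    have a4 := g2 _ _ a2
    obtain ⟨e, he, rfl⟩ : R' g μ S := a1
    obtain ⟨e', he', rfl⟩ : R' g' μ' S' := a2
    refine ⟨fun h => ?_, fun h => ?_⟩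
    · obtain ⟨k, rfl⟩ := isConj_iff.1 h
      have a5 : ∀ v, Matrix.toLin' k.1 (Matrix.toLin' (k⁻¹).1 v) = v := fun v => by
        rw [← Matrix.toLin'_mul_apply, ← Submonoid.coe_mul, mul_inv_cancel]; simp
      have a6 : ∀ v, Matrix.toLin' (k⁻¹).1 (Matrix.toLin' k.1 v) = v := fun v => by
        rw [← Matrix.toLin'_mul_apply, ← Submonoid.coe_mul, inv_mul_cancel]; simp
      have a7 : ∀ v, Matrix.toLin' k.1 (Matrix.toLin' g.1 v) =
          Matrix.toLin' (k * g * k⁻¹).1 (Matrix.toLin' k.1 v) := fun v => by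
        simp only [Submonoid.coe_mul, Matrix.toLin'_mul_apply, a6]
      obtain rfl : μ = μ' := by
        have := card_eq_of_similar_nilModel (a3.symm.trans ((H65.Similar.sub_one ⟨.ofLinear _ _
          (LinearMap.ext a5) (LinearMap.ext a6), a7⟩).trans a4))
        ext j
        rcases Nat.eq_zero_or_pos j with rfl | hj
        · rw [Multiset.count_eq_zero.mpr fun h => (μ.parts_pos h).false,
            Multiset.count_eq_zero.mpr fun h => (μ'.parts_pos h).false]
        · rw [← card_filter_toType, ← card_filter_toType, this j hj]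
      rw [(h1 μ _ _ (g1 _ _ e' he') (g1 _ _ e he)).2 ⟨e'.symm ∘ₗ Matrix.toLin' k.1 ∘ₗ e,
        LinearMap.ext fun v => e'.injective (by simp only [End.mul_apply, he', LinearMap.comp_apply,
          LinearEquiv.coe_coe, LinearEquiv.apply_symm_apply, he, a7]), fun v w => by
          simpa using (H66.mem_symplecticGroup_iff _).1 k.2 _ _⟩]
    · obtain ⟨rfl, h⟩ := Sigma.mk.inj_iff.1 h
      obtain ⟨c, a5, a6⟩ := (h1 μ _ _ (g1 _ _ e' he') (g1 _ _ e he)).1 (eq_of_heq h).symm
      obtain ⟨A, hA⟩ := Matrix.toLin'.surjective (e'.toLinearMap ∘ₗ c ∘ₗ e.symm.toLinearMap)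
      refine isConj_iff.2 ⟨⟨A, (H66.mem_symplecticGroup_iff _).2 fun v w => ?_⟩,
        mul_inv_eq_iff_eq_mul.2 (Subtype.ext (Matrix.toLin'.injective (LinearMap.ext fun v => ?_)))⟩
      · simpa [← Matrix.toLin'_apply, hA] using a6 (e.symm v) (e.symm w)
      · obtain ⟨v, rfl⟩ := e.surjective v
        simp only [Submonoid.coe_mul, Matrix.toLin'_mul_apply, hA, ← he, LinearMap.comp_apply,
          LinearEquiv.coe_coe, LinearEquiv.symm_apply_apply, ← he']
        exact congrArg _ (LinearMap.congr_fun a5.eq v).symm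
  simp only [← card_powerset]
  rw [← card_sigma, ← Nat.card_eq_finsetCard]
  have g5 : ∀ x : (({μ : Nat.Partition (2 * m) | (∀ a ∈ μ.parts, a ≤ p) ∧
      ∀ j, Odd j → Even (μ.parts.count j)} : Finset _).sigma
      fun μ => powerset {j ∈ μ.parts.toFinset | Even j}), ∃ g, R g x.1 ∧ g ^ p = 1 := by
    rintro ⟨⟨μ, S⟩, hx⟩
    simp only [mem_sigma, mem_filter, mem_univ, true_and, mem_powerset] at hx
    obtain ⟨B, hB, a1⟩ := pres_true_nilModel (F := F) (fun x : μ.parts => (x : ℕ)) fun a ha => by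
      rw [card_filter_toType]; exact hx.1.2 a ha
    obtain ⟨B', a2, a3⟩ := h4 μ B ⟨hB.nondegenerate, fun v w => by
      simp [LinearMap.IsAlt.neg (hB.isAlt rfl)], a1⟩ S hx.2
    obtain ⟨e, he⟩ := H66.exists_equiv_alt J B' hJ a2.nd (H66.sympBilin_isAlt m) (fun v =>
      (mul_eq_zero.1 (by linear_combination a2.sym v v)).resolve_left h2)
      (by rw [finrank_nilModel, sum_toType]; simp [two_mul])
    obtain ⟨A, hA⟩ := Matrix.toLin'.surjective (e.toLinearMap ∘ₗ u μ ∘ₗ e.symm.toLinearMap)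
    have a4 : R ⟨A, (H66.mem_symplecticGroup_iff _).2 fun v w => by
      simp only [← Matrix.toLin'_apply, hA, LinearMap.comp_apply, LinearEquiv.coe_coe]
      rw [he, a2.inv, ← he]; simp [J]⟩ ⟨μ, S⟩ :=
      ⟨e, by simp [hA], a3 ▸ congrArg _ (LinearMap.ext₂ he)⟩
    exact ⟨_, a4, (g3 _).2 ((sub_one_pow_eq_zero_iff_of_similar_nilModel (g2 _ _ a4) p).2
      fun x => hx.1.1 _ Multiset.coe_mem)⟩
  choose g a1 a2 using g5
  refine (Nat.card_congr (Equiv.ofBijective (fun x => ⟨ConjClasses.mk (g x), g x, rfl, a2 x⟩)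
    ⟨fun x y h => Subtype.ext ((g4 _ _ _ _ (a1 x) (a1 y)).1
      (ConjClasses.mk_eq_mk_iff_isConj.1 (congrArg Subtype.val h))), ?_⟩)).symm
  rintro ⟨C, x, rfl, hx⟩
  rw [g3] at hx
  obtain ⟨t, d, hd, h⟩ := exists_nilModel ((isNilpotent_toLin'_iff' _).mpr ⟨p, hx⟩)
  have b1 := h.finrank_eq
  rw [finrank_nilModel, finrank_fintype_fun_eq_card, Fintype.card_sum, Fintype.card_fin,
    ← two_mul] at b1
  let μ : Nat.Partition (2 * m) := ⟨univ.val.map d, fun hi => by
    obtain ⟨k, -, rfl⟩ := Multiset.mem_map.mp hi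
    exact hd k, b1.symm⟩
  rw [toLin'_sub_one] at h
  have b2 := h.trans (similar_nilModel_of_card_eq d (fun x : μ.parts => (x : ℕ)) fun j => by
    rw [card_filter_toType, Multiset.count_map]
    simp only [Finset.card, Finset.filter_val, eq_comm])
  obtain ⟨e, he⟩ : Similar (u μ) (Matrix.toLin' x.1) := by simpa using b2.add_one.symm
  refine ⟨⟨⟨μ, δ μ (J.comp e e)⟩, ?_⟩, Subtype.ext (ConjClasses.mk_eq_mk_iff_isConj.2
    ((g4 _ _ _ _ (a1 _) ⟨e, he, rfl⟩).2 rfl))⟩
  simp only [mem_sigma, mem_filter, mem_univ, true_and, mem_powerset]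
  refine ⟨⟨fun a ha => (sub_one_pow_eq_zero_iff_of_similar_nilModel b2 p).1 hx
    ⟨a, 0, Multiset.count_pos.2 ha⟩, fun j hj => ?_⟩, h3 _ _⟩
  rw [← card_filter_toType]
  exact (pres_symplectic x).even_card_of_odd b2 (fun x => μ.parts_pos Multiset.coe_mem) hj

end H64.Wall
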